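import Cfsg.Agent.CosetEnum.He.Simple

/-!
The Held group as a permutation group of degree 2058 (owner: helper12).
-/

set_option autoImplicit false
set_option maxRecDepth 1000000

namespace Cfsg.Agent.CosetEnum.He

open Cfsg.Spor MulAction

theorem exists_perm : ∃ H : Subgroup (Equiv.Perm (Fin 2058)), Cfsg.IsHe H ∧ MulAction.IsPretransitive H (Fin 2058) ∧
    ∃ (F : Type) (_ : Field F) (_ : Fintype F), Fintype.card F = 4 ∧
      ∃ N : Subgroup (MulAction.stabilizer H (0 : Fin 2058)), N.index = 2 ∧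
        Nonempty (N ≃* Matrix.symplecticGroup (Fin 2) F) := by
  obtain ⟨A, letsk, cw, _, _, hA, _, htr, _, _, hst⟩ := LH.ex
  have hinj := FH.1 A hA
  let φ : GH →* Equiv.Perm (Fin 2058) := MulAction.toPermHom GH (Fin HeT10.P.m)
  have hφ : ∀ (y : GH) (i : Fin 2058), φ y i = (y • (show Fin HeT10.P.m from i) : Fin HeT10.P.m) := fun _ _ => rfl
  have hφi : Function.Injective φ := hinj
  let e : GH ≃* φ.range := MonoidHom.ofInjective hφi
  have he : ∀ y : GH, ((e y : φ.range) : Equiv.Perm (Fin 2058)) = φ y := fun _ => rfl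
  refine ⟨φ.range, ⟨simple_equiv e simple_He, ?_⟩, ⟨?_⟩, ?_⟩
  · rw [← card_He]
    exact (Nat.card_congr e.toEquiv).symm
  · intro i j
    obtain ⟨y, hy⟩ := htr.exists_smul_eq (show Fin HeT10.P.m from i) (show Fin HeT10.P.m from j)
    exact ⟨e y, hy⟩
  · obtain ⟨N, K, iF, iFt, _, h2, h3, ⟨f⟩⟩ := exists_N
    -- the stabiliser of the point 0
    have hmem : ∀ y : GH, e y ∈ MulAction.stabilizer φ.range (0 : Fin 2058) ↔ y ∈ Cl gH 8 := by
      intro y
      rw [← hst, MulAction.mem_stabilizer_iff, MulAction.mem_stabilizer_iff]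
      exact Iff.rfl
    have hmap : (Cl gH 8).map e.toMonoidHom = MulAction.stabilizer φ.range (0 : Fin 2058) := by
      ext z
      constructor
      · rintro ⟨y, hy, rfl⟩
        exact (hmem y).2 hy
      · intro hz
        obtain ⟨y, rfl⟩ := e.surjective z
        exact ⟨y, (hmem y).1 hz, rfl⟩
    let E : Cl gH 8 ≃* MulAction.stabilizer φ.range (0 : Fin 2058) :=
      ((Cl gH 8).equivMapOfInjective e.toMonoidHom e.injective).trans (MulEquiv.subgroupCongr hmap)
    refine ⟨K, iF, iFt, h3, N.map E.toMonoidHom, ?_, ?_⟩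
    · rw [← h2]
      exact Subgroup.index_map_equiv N E
    · exact ⟨(N.equivMapOfInjective E.toMonoidHom E.injective).symm.trans f⟩

end Cfsg.Agent.CosetEnum.He
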